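import Cfsg.Agent.H5.CITMain
import Cfsg.Agent.H2.PSL2Graph

/-!
# The orders of CIT-groups
-/

set_option autoImplicit false

namespace Cfsg.Agent.H5

universe u

theorem citOrders : H2.CitOrders.{u} := by
  intro X _ _ hX hO
  rcases cit_main.{0} hX hO with h | ⟨h, -⟩ | ⟨q, n, h1, h2, h3, h4, -⟩ | ⟨h, -⟩
  · exact Or.inl h
  · exact Or.inr (Or.inl h)
  · refine Or.inr (Or.inr ?_)
    rcases h3 with rfl | h3
    · exact Or.inl (by omega)
    · refine Or.inr (Or.inr ⟨q, n + 1, h3, h2, ?_⟩)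
      rw [← h4, Nat.gcd_eq_right]
      rw [pow_succ] at h2
      omega
  · exact Or.inr (Or.inr (Or.inr (Or.inl h)))

end Cfsg.Agent.H5
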